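/-
No normal `E₈`, fused normal four-group (S3102): the interface of the three identifications.
-/
import Cfsg.Agent.FW.Syl1
import Cfsg.Prelude.Def_CaseTheorems
import Cfsg.Prelude.Def_Transfer
import Cfsg.Prelude.Def_TwoFusion
import Cfsg.Prelude.Def_LieChev
import Cfsg.Prelude.Def_Spor_J2
import Cfsg.Prelude.Def_Spor_Ly

set_option autoImplicit false

open Cfsg

namespace CL.Sec4

universe u

/-- `P` is of type `G₂(q)`, `q ≡ ±1 mod 8` -/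
def TyG2 (P : Type u) [Group P] : Prop :=
  ∃ (F : Type) (_ : Field F) (_ : Fintype F), (Fintype.card F % 8 = 1 ∨ Fintype.card F % 8 = 7) ∧
    ∃ Q : Sylow 2 ↥(Lie.chevG2.group F), Nonempty (P ≃* ↥(Q : Subgroup ↥(Lie.chevG2.group F)))

/-- `P` is of type `J₂` -/
def TyJ2 (P : Type u) [Group P] : Prop := ∃ Q : Sylow 2 Spor.J2, Nonempty (P ≃* ↥(Q : Subgroup Spor.J2))

/-- `P` is of type `Ly` -/
def TyLy (P : Type u) [Group P] : Prop := ∃ Q : Sylow 2 Spor.Ly, Nonempty (P ≃* ↥(Q : Subgroup Spor.Ly))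

/-- The models `MG n`, `n ≥ 3`, are Sylow subgroups of `G₂(q)`. -/
def MHG2 : Prop := ∀ n : ℕ, 3 ≤ n → TyG2 (CL.FW.Syl.MG n)

/-- The non-connected case. -/
def MHJ2 : Prop := ∀ (G : Type u) [Group G] [Finite G], (∀ N : Subgroup G, N.Normal → N.index ≠ 2) →
  (∀ z : G, ¬ IsIsolatedInvolution z) → ∀ S : Sylow 2 G, ¬ PRankLE 2 2 ↥(S : Subgroup G) →
    ¬ IsFourConnected ↥(S : Subgroup G) → TyJ2 ↥(S : Subgroup G)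

/-- the relations of a Sylow `2`-subgroup of `Ly` -/
structure LyR {P : Type u} [Group P] (z y f₁ f₂ g₁ g₂ x t : P) : Prop where
  z2 : z * z = 1
  y2 : y * y = 1
  f12 : f₁ * f₁ = 1
  f22 : f₂ * f₂ = 1
  g12 : g₁ * g₁ = 1
  g22 : g₂ * g₂ = 1
  x2 : x * x = 1
  t2 : t * t = 1
  yz : y * z * y⁻¹ = z
  f1z : f₁ * z * f₁⁻¹ = z
  f1y : f₁ * y * f₁⁻¹ = y
  f2z : f₂ * z * f₂⁻¹ = z
  f2y : f₂ * y * f₂⁻¹ = y
  f2f1 : f₂ * f₁ * f₂⁻¹ = f₁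
  g1z : g₁ * z * g₁⁻¹ = z
  g1y : g₁ * y * g₁⁻¹ = y
  g1f1 : g₁ * f₁ * g₁⁻¹ = z * f₁
  g1f2 : g₁ * f₂ * g₁⁻¹ = z * y * f₂
  g2z : g₂ * z * g₂⁻¹ = z
  g2y : g₂ * y * g₂⁻¹ = y
  g2f1 : g₂ * f₁ * g₂⁻¹ = z * y * f₁
  g2f2 : g₂ * f₂ * g₂⁻¹ = y * f₂
  g2g1 : g₂ * g₁ * g₂⁻¹ = g₁
  xz : x * z * x⁻¹ = z
  xy : x * y * x⁻¹ = y
  xf1 : x * f₁ * x⁻¹ = g₁
  xf2 : x * f₂ * x⁻¹ = g₂
  xg1 : x * g₁ * x⁻¹ = f₁
  xg2 : x * g₂ * x⁻¹ = f₂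
  tz : t * z * t⁻¹ = z
  ty : t * y * t⁻¹ = z * y
  tf1 : t * f₁ * t⁻¹ = f₁
  tf2 : t * f₂ * t⁻¹ = f₁ * f₂
  tg1 : t * g₁ * t⁻¹ = g₁
  tg2 : t * g₂ * t⁻¹ = g₁ * g₂
  tx : t * x * t⁻¹ = x

/-- A group of order `256` generated by elements with these relations is of type `Ly`. -/
def MHLy : Prop := ∀ (P : Type u) [Group P] [Finite P] (z y f₁ f₂ g₁ g₂ x t : P), LyR z y f₁ f₂ g₁ g₂ x t →
  Subgroup.closure {t, x, g₂, g₁, f₂, f₁, y, z} = ⊤ → Nat.card P = 256 →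
    (∀ c : P, c * c = 1 → (∀ g, g * c = c * g) → c = 1 ∨ c = z) → TyLy P

end CL.Sec4
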